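import Cfsg.Agent.Lib.Coprime.Generation
import Cfsg.Agent.Lib.Coprime.Gaschutz
import Cfsg.Agent.Lib.Core.Basic
import Cfsg.Agent.Lib.PGroup.Omega

/-!
# Goldschmidt's generation lemma

If the abelian group `A` acts coprimely on the solvable group `Y = [Y, A]` and `B ≤ A`, then
`C_Y(B)` is generated by the `C_Y(B) ∩ [C_Y(B₀), A]`, `B / B₀` cyclic.
-/

set_option autoImplicit false

namespace Cfsg.Lib.Coprime

open Subgroup
open scoped commutatorElement

universe u

/-- `B₀ ≤ B` with cyclic quotient. -/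
def Cocyc {G : Type*} [Group G] (B₀ B : Subgroup G) : Prop := B₀ ≤ B ∧ ∃ b ∈ B, B₀ ⊔ zpowers b = B

section
variable {G : Type*} [Group G] [Finite G] {A B Y D : Subgroup G}

omit [Finite G] in
theorem comm_le_cent_of_central {K B₀ : Subgroup G} {x : G} (hx : x ∈ centralizer (B₀ : Set G))
    (h : ∀ k ∈ K, ⁅k, x⁆ ∈ center G) : ⁅K, B₀⁆ ≤ centralizer ({x} : Set G) := by
  rw [commutator_le]
  intro k hk b hb
  have h1 := mem_center_iff.1 (inv_mem (h k hk))
  have h2 := hx b hb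
  have e1 : k * x * k⁻¹ = ⁅k, x⁆ * x := by rw [commutatorElement_def]; group
  have e2 : k⁻¹ * x = ⁅k, x⁆⁻¹ * x * k⁻¹ :=
    calc k⁻¹ * x = k⁻¹ * ⁅k, x⁆⁻¹ * (k * x * k⁻¹) := by rw [e1]; group
      _ = _ := by rw [h1]; group
  rw [mem_centralizer_singleton_iff]
  calc ⁅k, b⁆ * x = k * b * k⁻¹ * (b⁻¹ * (x * b)) * b⁻¹ := by rw [commutatorElement_def]; group
    _ = k * b * (k⁻¹ * x) * b⁻¹ := by rw [← h2]; group
    _ = k * b * ⁅k, x⁆⁻¹ * x * k⁻¹ * b⁻¹ := by rw [e2]; group
    _ = ⁅k, x⁆⁻¹ * k * (b * x) * k⁻¹ * b⁻¹ := by rw [h1]; group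
    _ = ⁅k, x⁆⁻¹ * (k * x * k⁻¹) * ⁅k, b⁆ := by rw [h2, commutatorElement_def k b]; group
    _ = _ := by rw [e1]; group

variable (hA : IsMulCommutative A) (hB : B ≤ A) [hY : Y.Normal]
  (hcop : (Nat.card A).Coprime (Nat.card Y))
include hA hB hcop

omit [Finite G] hY hcop in
theorem norm_cent_of_cocyc {B₀ : Subgroup G} (h : Cocyc B₀ B) :
    A ≤ normalizer ((centralizer (B₀ : Set G) : Subgroup G) : Set G) :=
  le_normalizer_centralizer (((le_centralizer_iff_isMulCommutative.2 hA).trans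
    (centralizer_le (h.1.trans hB))).trans (centralizer_le_normalizer _))

omit hY in
theorem comm_le_of_cocyc {C H : Subgroup G} [C.Normal] (hC : C ≤ Y)
    (h : ∀ B₀, Cocyc B₀ B → ⁅C ⊓ centralizer (B₀ : Set G), A⁆ ≤ H) : ⁅C, A⁆ ≤ H := by
  have hc := hcop.coprime_dvd_right (card_dvd_of_le hC)
  rw [← commutator_iSup_eq (fun B₀ : {B₀ // Cocyc B₀ B} => C ⊓ centralizer (B₀.1 : Set G)) hc
    (Or.inl (isSolvable_of_isMulCommutative hA))]
  · exact iSup_le fun B₀ => h _ B₀.2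
  · refine le_antisymm (iSup_le fun _ => inf_le_left) (le_of_forall_cocyclic
      (PGroup.isMulCommutative_of_le hB hA) le_normalizer_of_normal
      (hc.coprime_dvd_left (card_dvd_of_le hB)) fun B₀ h1 h2 => ?_)
    exact le_iSup (fun B₀ : {B₀ // Cocyc B₀ B} => C ⊓ centralizer (B₀.1 : Set G)) ⟨B₀, h1, h2⟩
  · exact fun B₀ => le_normalizer_inf le_normalizer_of_normal (norm_cent_of_cocyc hA hB B₀.2)
  · exact fun B₀ => (inf_le_inf_left _ (centralizer_le (B₀.2.1.trans hB))).trans le_normalizer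

omit hY in
theorem exists_cent_mul_comm {K B₀ : Subgroup G} [K.Normal] (hK : K ≤ Y) (h : Cocyc B₀ B) {k : G}
    (hk : k ∈ K) : ∃ c ∈ K ⊓ centralizer (B₀ : Set G), ∃ n ∈ ⁅K, B₀⁆, k = c * n :=
  exists_centralizer_mul_commutator le_normalizer_of_normal
    ((hcop.coprime_dvd_right (card_dvd_of_le hK)).coprime_dvd_left (card_dvd_of_le (h.1.trans hB)))
    (Or.inl (isSolvable_of_isMulCommutative (PGroup.isMulCommutative_of_le (h.1.trans hB) hA))) hk

omit [Finite G] hcop in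
theorem comm_le_cent_of_cocyc {B₀ : Subgroup G} (h : Cocyc B₀ B) :
    ⁅Y ⊓ centralizer (B₀ : Set G), A⁆ ≤ Y ⊓ centralizer (B₀ : Set G) :=
  commutator_le_of_le_normalizer
    (le_normalizer_inf le_normalizer_of_normal (norm_cent_of_cocyc hA hB h))

theorem comm_le_of_pieces (hYA : ⁅Y, A⁆ = Y) {K M : Subgroup G} [hKn : K.Normal] (hK : K ≤ Y)
    (h1 : ⁅K, A⁆ ≤ M) (h2 : ∀ B₀, Cocyc B₀ B →
      ⁅K ⊓ centralizer (B₀ : Set G), ⁅Y ⊓ centralizer (B₀ : Set G), A⁆⁆ ≤ M) : ⁅K, Y⁆ ≤ M := by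
  let S : Subgroup G :=
    { carrier := {y | ∀ k ∈ K, ⁅k, y⁆ ∈ M ∧ ⁅k, y⁻¹⁆ ∈ M}
      one_mem' := fun k _ => by simp
      mul_mem' := fun {y z} hy hz k hk => by
        have e : ∀ y z : G, ⁅k, y * z⁆ = ⁅k, z⁆ * ⁅z * k * z⁻¹, y⁆ := fun y z => by
          simp only [commutatorElement_def]; group
        refine ⟨?_, ?_⟩
        · rw [e]; exact mul_mem (hz k hk).1 (hy _ (hKn.conj_mem k hk z)).1
        · rw [mul_inv_rev, e]; exact mul_mem (hy k hk).2 (hz _ (hKn.conj_mem k hk _)).2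
      inv_mem' := fun {y} hy k hk => by simpa using (hy k hk).symm }
  have hS : Y ≤ S := by
    rw [← hYA]
    refine comm_le_of_cocyc hA hB hcop le_rfl fun B₀ h => ?_
    have key : ∀ x ∈ ⁅Y ⊓ centralizer (B₀ : Set G), A⁆, ∀ k ∈ K, ⁅k, x⁆ ∈ M := by
      intro x hx k hk
      obtain ⟨c, hc, n, hn, e⟩ := exists_cent_mul_comm hA hB hcop hK h (inv_mem hk)
      have h3 : ⁅K, B₀⁆ ≤ M := (commutator_mono le_rfl (h.1.trans hB)).trans h1
      have h4 : x ∈ normalizer ((⁅K, B₀⁆ : Subgroup G) : Set G) := zpowers_le.1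
        (le_normalizer_commutator le_normalizer_of_normal (zpowers_le.2
          (centralizer_le_normalizer _ (comm_le_cent_of_cocyc hA hB h hx).2)))
      have e2 : ⁅k, x⁆ = n⁻¹ * ⁅c⁻¹, x⁆ * (x * n * x⁻¹) := by
        rw [← inv_inv k, e]; simp only [commutatorElement_def]; group
      rw [e2]
      exact mul_mem (mul_mem (inv_mem (h3 hn)) (h2 B₀ h (commutator_mem_commutator (inv_mem hc) hx)))
        (h3 ((mem_normalizer_iff.1 h4 n).1 hn))
    exact fun x hx k hk => ⟨key x hx k hk, key _ (inv_mem hx) k hk⟩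
  exact commutator_le.2 fun k hk y hy => (hS hy k hk).1

variable (hYA : ⁅Y, A⁆ = Y) (hD : ∀ B₀, Cocyc B₀ B →
  Y ⊓ centralizer (B : Set G) ⊓ ⁅Y ⊓ centralizer (B₀ : Set G), A⁆ ≤ D)
include hYA hD

theorem cent_le_of_abelian {N : Subgroup G} [N.Normal] (hN : N ≤ Y) (hc : IsMulCommutative N)
    (hNY : ⁅N, Y⁆ = N) : N ⊓ centralizer (A : Set G) ≤ D := by
  have hs := isSolvable_of_isMulCommutative hA
  have h1 := comm_le_of_pieces hA hB hcop hYA hN
    (M := ⁅N, A⁆ ⊔ D ⊓ (N ⊓ centralizer (A : Set G))) le_sup_left fun B₀ h => by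
      set X := ⁅Y ⊓ centralizer (B₀ : Set G), A⁆
      set R := ⁅N ⊓ centralizer (B₀ : Set G), X⁆
      have hRN : R ≤ N := (commutator_mono inf_le_left le_rfl).trans (commutator_le_left _ _)
      have hRX : R ≤ X := by
        rw [show R = ⁅X, N ⊓ centralizer (B₀ : Set G)⁆ from commutator_comm _ _]
        exact commutator_le_of_le_normalizer ((inf_le_inf_right _ hN).trans
          (normalizer_commutator_ge_left _ _))
      have hAR : A ≤ normalizer (R : Set G) := le_normalizer_commutator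
        (le_normalizer_inf le_normalizer_of_normal (norm_cent_of_cocyc hA hB h))
        (normalizer_commutator_ge_right _ _)
      rw [← commutator_sup_centralizer hAR (hcop.coprime_dvd_right (card_dvd_of_le (hRN.trans hN)))
        (Or.inl hs)]
      refine sup_le_sup (commutator_mono hRN le_rfl) (le_inf (le_trans ?_ (hD B₀ h))
        (inf_le_inf_right _ hRN))
      exact le_inf (inf_le_inf (hRN.trans hN) (centralizer_le hB)) (inf_le_left.trans hRX)
  rw [hNY] at h1
  intro n hn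
  obtain ⟨u, hu, d, hd, rfl⟩ := (mem_sup_left_of_le_normalizer ((inf_le_right.trans
    inf_le_left).trans (normalizer_commutator_ge_left _ _))).1 (h1 hn.1)
  have h2 : u ∈ ⁅N, N⁆ := centralizer_inf_commutator_le le_normalizer_of_normal
    (hcop.coprime_dvd_right (card_dvd_of_le hN))
    ⟨by simpa using (centralizer (A : Set G)).mul_mem hn.2 ((centralizer _).inv_mem hd.2.2), hu⟩
  rw [commutator_eq_bot_iff_le_centralizer.2 (le_centralizer_iff_isMulCommutative.2 hc),
    mem_bot] at h2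
  rw [h2, one_mul]
  exact hd.1

theorem exists_normal_cent_le (hG : Y ⊔ A = ⊤) (hs : Group.IsSolvable Y) (h1 : Y ≠ ⊥) :
    ∃ N : Subgroup G, N.Normal ∧ N ≠ ⊥ ∧ N ≤ Y ∧ N ⊓ centralizer (A : Set G) ≤ D := by
  by_contra hcon
  have H : ∀ N : Subgroup G, N.Normal → N ≤ Y → N ⊓ centralizer (A : Set G) ≤ D → N = ⊥ :=
    fun N h2 h3 h4 => by_contra fun h => hcon ⟨N, h2, h, h3, h4⟩
  have hZ : ∀ B₀, Cocyc B₀ B → ∀ z ∈ center G, z ∈ ⁅Y ⊓ centralizer (B₀ : Set G), A⁆ → z = 1 := by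
    intro B₀ h z hz hzX
    have h2 := H (center G ⊓ ⁅Y ⊓ centralizer (B₀ : Set G), A⁆)
      ⟨fun n hn g => by rw [mem_center_iff.1 hn.1 g, mul_inv_cancel_right]; exact hn⟩
      (inf_le_right.trans ((comm_le_cent_of_cocyc hA hB h).trans inf_le_left))
      (fun n hn => hD B₀ h ⟨⟨(comm_le_cent_of_cocyc hA hB h hn.1.2).1,
        center_le_centralizer _ hn.1.1⟩, hn.1.2⟩)
    rw [← mem_bot, ← h2]
    exact ⟨hz, hzX⟩
  have nX : ∀ B₀ : Subgroup G, ∀ u ∈ ⁅Y ⊓ centralizer (B₀ : Set G), A⁆,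
      ∀ c ∈ Y ⊓ centralizer (B₀ : Set G), ⁅c, u⁆ ∈ ⁅Y ⊓ centralizer (B₀ : Set G), A⁆ :=
    fun B₀ u hu c hc => mul_mem ((mem_normalizer_iff.1
      (normalizer_commutator_ge_left _ _ hc) u).1 hu) (inv_mem hu)
  have P1 : ∀ K C : Subgroup G, K.Normal → C.Normal → K ≤ Y → C ≤ Y → ⁅K, C⁆ ≤ center G →
      ⁅C, A⁆ ≤ centralizer (K : Set G) := by
    intro K C _ _ hK hC h
    refine comm_le_of_cocyc hA hB hcop hC fun B₀ h0 x hx k hk => ?_
    have hx1 := commutator_mono (inf_le_inf_right _ hC) le_rfl hx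
    have hx2 : x ∈ C := (commutator_mono inf_le_left le_rfl).trans (commutator_le_left _ _) hx
    obtain ⟨c, hc, n, hn, rfl⟩ := exists_cent_mul_comm hA hB hcop hK h0 hk
    have e1 := mem_centralizer_singleton_iff.1 (comm_le_cent_of_central
      (comm_le_cent_of_cocyc hA hB h0 hx1).2
      (fun k hk => h (commutator_mem_commutator hk hx2)) hn)
    have e2 := commutatorElement_eq_one_iff_mul_comm.1 (hZ B₀ h0 _
      (h (commutator_mem_commutator hc.1 hx2)) (nX B₀ x hx1 c ⟨hK hc.1, hc.2⟩))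
    rw [mul_assoc, e1, ← mul_assoc, e2, mul_assoc]
  have hYZ : ¬ Y ≤ center G := fun h => h1 (by
    rw [← hYA, commutator_eq_bot_iff_le_centralizer]
    exact h.trans (center_le_centralizer _))
  obtain ⟨K, -, ⟨hKn, hK, hKZ⟩, hmin⟩ := Core.exists_minimal_le
    (P := fun K : Subgroup G => K.Normal ∧ K ≤ Y ∧ ¬ K ≤ center G) ⟨hY, le_rfl, hYZ⟩
  have hKA := centralizer_inf_commutator_le (A := A) (K := K) le_normalizer_of_normal
    (hcop.coprime_dvd_right (card_dvd_of_le hK))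
  have hKY : ⁅K, Y⁆ = K := by
    by_contra h
    have h2 : ⁅K, Y⁆ ≤ center G := by_contra fun h3 =>
      h (hmin _ ⟨inferInstance, (commutator_le_left _ _).trans hK, h3⟩ (commutator_le_left _ _))
    have h3 := P1 K Y hKn hY hK le_rfl h2
    rw [hYA] at h3
    have h4 : ⁅K, A⁆ = ⊥ := by
      refine H _ (normalizer_eq_top_iff.1 (top_le_iff.1 (hG ▸ sup_le ?_
        (normalizer_commutator_ge_right _ _)))) ((commutator_le_left _ _).trans hK) ?_
      · exact (h3.trans (centralizer_le (commutator_le_left _ _))).trans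
          (centralizer_le_normalizer _)
      · rw [inf_comm]
        refine hKA.trans ?_
        rw [commutator_eq_bot_iff_le_centralizer.2 (hK.trans h3)]
        exact bot_le
    apply hKZ
    rw [← centralizer_univ, ← coe_top, ← hG, le_centralizer_iff]
    exact sup_le h3 (le_centralizer_iff.1 (commutator_eq_bot_iff_le_centralizer.1 h4))
  have hK1 : K ≠ ⊥ := fun h => hKZ (h ▸ bot_le)
  have hKK : ⁅K, K⁆ ≤ center G := by_contra fun h3 =>
    (commutator_lt_of_isSolvable (isSolvable_of_le hK hs) hK1).ne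
      (hmin _ ⟨inferInstance, (commutator_le_left _ _).trans hK, h3⟩ (commutator_le_left _ _))
  have hKc : K ≤ centralizer (K : Set G) := by
    conv_lhs => rw [← commutator_sup_centralizer (A := A) (K := K) le_normalizer_of_normal
      (hcop.coprime_dvd_right (card_dvd_of_le hK)) (Or.inl (isSolvable_of_isMulCommutative hA))]
    refine sup_le (P1 K K hKn hKn hK hK hKK) fun c hc => ?_
    have h3 := comm_le_of_pieces hA hB hcop hYA hK (M := centralizer {c})
      (comm_le_cent_of_central hc.2 fun k hk => hKK (commutator_mem_commutator hk hc.1))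
      fun B₀ h u hu => by
        have hu1 : u ∈ K := (commutator_mono inf_le_left le_rfl).trans (commutator_le_left _ _) hu
        have hu2 : u ∈ ⁅Y ⊓ centralizer (B₀ : Set G), A⁆ :=
          (commutator_le (H₁ := K ⊓ centralizer (B₀ : Set G))).2
            (fun a ha b hb => nX B₀ b hb a ⟨hK ha.1, ha.2⟩) hu
        exact mem_centralizer_singleton_iff.2 (commutatorElement_eq_one_iff_mul_comm.1 (hZ B₀ h _
          (hKK (commutator_mem_commutator hc.1 hu1))
          (nX B₀ u hu2 c ⟨hK hc.1, centralizer_le (h.1.trans hB) hc.2⟩))).symm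
    rw [hKY] at h3
    exact fun k hk => mem_centralizer_singleton_iff.1 (h3 hk)
  exact hK1 (H K hKn hK (cent_le_of_abelian hA hB hcop hYA hD hK
    (le_centralizer_iff_isMulCommutative.1 hKc) hKY))

end

theorem Cocyc.comap_inf {G G' : Type*} [Group G] [Group G'] (f : G →* G') {B : Subgroup G}
    (hB : IsMulCommutative B) {B₀ : Subgroup G'} (h : Cocyc B₀ (B.map f)) :
    Cocyc (B ⊓ B₀.comap f) B ∧ (B ⊓ B₀.comap f).map f = B₀ := by
  obtain ⟨h1, _, ⟨b, hb, rfl⟩, h2⟩ := h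
  refine ⟨⟨inf_le_left, b, hb, le_antisymm (sup_le inf_le_left (zpowers_le.2 hb)) fun x hx => ?_⟩,
    le_antisymm (map_le_iff_le_comap.2 inf_le_right) fun y hy => ?_⟩
  · have h3 : f x ∈ B₀ ⊔ zpowers (f b) := h2 ▸ mem_map_of_mem f hx
    have h4 : IsMulCommutative (B.map f) := inferInstance
    obtain ⟨y, hy, _, ⟨k, rfl⟩, e⟩ := (mem_sup_left_of_le_normalizer (((zpowers_le.2
      (mem_map_of_mem f hb)).trans ((le_centralizer_iff_isMulCommutative.2 h4).trans
        (centralizer_le h1))).trans (centralizer_le_normalizer _))).1 h3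
    rw [← inv_mul_cancel_right x (b ^ k)]
    refine mul_mem (mem_sup_left (mem_inf.2 ⟨mul_mem hx (B.inv_mem (B.zpow_mem hb k)), ?_⟩))
      (mem_sup_right (zpow_mem_zpowers b k))
    rw [mem_comap, map_mul, map_inv, map_zpow, ← e]
    simpa using hy
  · obtain ⟨x, hx, rfl⟩ := h1 hy
    exact mem_map_of_mem f ⟨hx, hy⟩

theorem cent_le_aux (n : ℕ) : ∀ (G : Type u) [Group G] [Finite G], Nat.card G < n →
    ∀ A B Y D : Subgroup G, IsMulCommutative A → B ≤ A → Y.Normal → Y ⊔ A = ⊤ →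
    Group.IsSolvable Y → (Nat.card A).Coprime (Nat.card Y) → ⁅Y, A⁆ = Y →
    (∀ B₀, Cocyc B₀ B → Y ⊓ centralizer (B : Set G) ⊓ ⁅Y ⊓ centralizer (B₀ : Set G), A⁆ ≤ D) →
    Y ⊓ centralizer (B : Set G) ≤ D := by
  induction n with
  | zero => intro G _ _ h; omega
  | succ n ih =>
  intro G _ _ hn A B Y D hA hB hY hG hs hcop hYA hD
  by_cases h1 : Y = ⊥
  · rw [h1, bot_inf_eq]; exact bot_le
  have hD' : ∀ B₀, Cocyc B₀ B → Y ⊓ centralizer (B : Set G) ⊓ ⁅Y ⊓ centralizer (B₀ : Set G), A⁆ ≤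
      D ⊓ centralizer (B : Set G) := fun B₀ h => le_inf (hD B₀ h) (inf_le_left.trans inf_le_right)
  obtain ⟨N, hNn, hN1, hN, hND⟩ := exists_normal_cent_le hA hB hcop hYA hD hG hs h1
  have hsA := isSolvable_of_isMulCommutative hA
  have hBB : Cocyc B B := ⟨le_rfl, 1, one_mem _, by simp⟩
  have hNB : N ⊓ centralizer (B : Set G) ≤ D := by
    have h2 : A ≤ normalizer ((N ⊓ centralizer (B : Set G) : Subgroup G) : Set G) :=
      le_normalizer_inf le_normalizer_of_normal (norm_cent_of_cocyc hA hB hBB)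
    rw [← commutator_sup_centralizer h2 (hcop.coprime_dvd_right
      (card_dvd_of_le (inf_le_left.trans hN))) (Or.inl hsA)]
    refine sup_le (le_trans ?_ (hD B hBB)) ((inf_le_inf_right _ inf_le_left).trans hND)
    exact le_inf ((commutator_le_of_le_normalizer h2).trans (inf_le_inf_right _ hN))
      (commutator_mono (inf_le_inf_right _ hN) le_rfl)
  let f := QuotientGroup.mk' N
  have hf : Function.Surjective f := QuotientGroup.mk'_surjective N
  have hmap : ∀ X C : Subgroup G, X ≤ Y → C ≤ A → C ≤ normalizer (X : Set G) →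
      X.map f ⊓ centralizer ((C.map f : Subgroup _) : Set (G ⧸ N)) =
        (X ⊓ centralizer (C : Set G)).map f := fun X C h2 h3 h4 =>
    map_inf_centralizer_map' f h4 ((hcop.coprime_dvd_right (card_dvd_of_le h2)).coprime_dvd_left
      (card_dvd_of_le h3)) (Or.inl (isSolvable_of_le h3 hsA))
  have h3 := ih (G ⧸ N) (by
      have := Nat.card_pos (α := G ⧸ N)
      have h4 := card_eq_card_quotient_mul_card_subgroup N
      have h5 := (one_lt_card_iff_ne_bot N).2 hN1
      nlinarith) (A.map f) (B.map f) (Y.map f) ((D ⊓ centralizer (B : Set G)).map f)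
    inferInstance (map_mono hB) (hY.map f hf)
    (by rw [← Subgroup.map_sup, hG, map_top_of_surjective f hf]) (isSolvable_map _ _ hs)
    ((hcop.coprime_dvd_right (card_map_dvd _ f)).coprime_dvd_left (card_map_dvd _ f))
    (by rw [← map_commutator, hYA]) fun B₀ h => by
      obtain ⟨h4, h5⟩ := h.comap_inf f (PGroup.isMulCommutative_of_le hB hA)
      rw [← h5, hmap Y _ le_rfl (h4.1.trans hB) le_normalizer_of_normal, ← map_commutator]
      refine le_trans (fun x hx => ?_) (map_mono (hD' _ h4))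
      have h6 := (comm_le_cent_of_cocyc (Y := Y) hA hB h4).trans inf_le_left
      have h7 := hmap _ B h6 hB (hB.trans (normalizer_commutator_ge_right _ _))
      obtain ⟨y, hy, rfl⟩ := h7.le ⟨hx.2, hx.1.2⟩
      exact mem_map_of_mem f ⟨⟨h6 hy.1, hy.2⟩, hy.1⟩
  rw [hmap Y B le_rfl hB le_normalizer_of_normal] at h3
  intro x hx
  obtain ⟨d, hd, e⟩ := h3 (mem_map_of_mem f hx)
  have h4 : d⁻¹ * x ∈ N := QuotientGroup.eq.1 e
  have := D.mul_mem hd.1 (hNB ⟨h4, (centralizer (B : Set G)).mul_mem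
    ((centralizer _).inv_mem hd.2) hx.2⟩)
  simpa using this

/-- Goldschmidt's generation lemma. -/
theorem inf_cent_le_of_cocyc {G : Type u} [Group G] [Finite G] {A B Y D : Subgroup G}
    (hA : IsMulCommutative A) (hB : B ≤ A) (hY : A ≤ normalizer (Y : Set G))
    (hs : Group.IsSolvable Y) (hcop : (Nat.card A).Coprime (Nat.card Y)) (hYA : ⁅Y, A⁆ = Y)
    (hD : ∀ B₀, Cocyc B₀ B →
      Y ⊓ centralizer (B : Set G) ⊓ ⁅Y ⊓ centralizer (B₀ : Set G), A⁆ ≤ D) :
    Y ⊓ centralizer (B : Set G) ≤ D := by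
  set H := Y ⊔ A
  have h1 : Y ≤ H := le_sup_left
  have h2 : A ≤ H := le_sup_right
  have inj := map_injective H.subtype_injective
  have cm : ∀ C : Subgroup H, (Y.subgroupOf H ⊓ centralizer (C : Set H)).map H.subtype ≤
      Y ⊓ centralizer ((C.map H.subtype : Subgroup G) : Set G) := by
    rintro C _ ⟨x, hx, rfl⟩
    refine ⟨hx.1, ?_⟩
    rintro _ ⟨c, hc, rfl⟩
    exact congrArg Subtype.val (hx.2 c hc)
  have h3 := cent_le_aux _ H (Nat.lt_succ_self _) (A.subgroupOf H) (B.subgroupOf H)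
    (Y.subgroupOf H) (D.subgroupOf H) inferInstance (comap_mono hB)
    (normal_subgroupOf_of_le_normalizer (sup_le le_normalizer hY))
    (inj (by rw [Subgroup.map_sup, map_subgroupOf_eq_of_le h1, map_subgroupOf_eq_of_le h2,
      ← MonoidHom.range_eq_map, range_subtype]))
    (Group.isSolvable_of_isSolvable_injective (f := (subgroupOfEquivOfLe h1).toMonoidHom)
      (subgroupOfEquivOfLe h1).injective)
    (by rwa [Nat.card_congr (subgroupOfEquivOfLe h1).toEquiv,
      Nat.card_congr (subgroupOfEquivOfLe h2).toEquiv])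
    (inj (by rw [map_commutator, map_subgroupOf_eq_of_le h1, map_subgroupOf_eq_of_le h2, hYA]))
    fun B₀ h x hx => by
      have hb := map_subgroupOf_eq_of_le (hB.trans h2)
      refine hD (B₀.map H.subtype) ⟨hb ▸ map_mono h.1, ?_⟩ ⟨hb ▸ cm _ (mem_map_of_mem _ hx.1), ?_⟩
      · obtain ⟨b, hb1, hb2⟩ := h.2
        refine ⟨b, hb1, ?_⟩
        rw [← hb, ← hb2, Subgroup.map_sup, MonoidHom.map_zpowers]
        rfl
      · have := mem_map_of_mem H.subtype hx.2
        rw [map_commutator, map_subgroupOf_eq_of_le h2] at this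
        exact commutator_mono (cm _) le_rfl this
  exact fun x hx => h3 (x := ⟨x, h1 hx.1⟩) ⟨hx.1, fun b hb => Subtype.ext (hx.2 b hb)⟩

end Cfsg.Lib.Coprime
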